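import Mathlib
import Cfsg.Prelude.Def_Classical
import Cfsg.Agent.Lib.Helper40.PSpRP
import Cfsg.Agent.Lib.Helper8.PG.Defs

/-!
# [SPINVNEC] for the prime graph project S2474

`S ∈ Sp_{2n}(q)` with `S ^ (2 s) = 1`, `S ^ 2 ≠ ± 1`, `S ^ s ≠ ± 1`.  With `z = S ^ s`,
`t = S ^ (s + 1)` and the idempotents `e, f = (1 ± z) / 2`, one of `t e + f`, `t f + e` is a
non-trivial symplectic matrix with `s`-th power one fixing a non-zero vector; the shape of its
characteristic polynomial then forces `η(k) ≤ n - 1`.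
-/

set_option autoImplicit false

namespace Cfsg.Agent.Lib.Helper4.PG

open Matrix Polynomial Cfsg.Agent.Lib.Helper8.PG Cfsg.Agent.Lib.Helper40.DualPoly
  Cfsg.Agent.Lib.Helper40.SympWall Cfsg.Agent.Lib.Helper40.SpExist
  Cfsg.Agent.Lib.Helper40.PrimeOrderGL Cfsg.Agent.Lib.Helper40.GUPrimeOrder
  Cfsg.Agent.Lib.Helper40.PSUCommute Cfsg.Agent.Lib.Helper40.PSpRP

universe u

section ring

variable {R : Type*} [Ring R]

/-- Powers of `t e + f` for commuting `t` and complementary orthogonal idempotents `e`, `f`. -/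
theorem glue_pow (t e f : R) (hee : e * e = e) (hff : f * f = f) (hef : e * f = 0)
    (hfe : f * e = 0) (h1 : e + f = 1) (hte : t * e = e * t) (j : ℕ) :
    (t * e + f) ^ j = t ^ j * e + f := by
  induction j with
  | zero => rw [pow_zero, pow_zero, one_mul, h1]
  | succ j ih =>
    rw [pow_succ, ih, hte]
    have e1 : (t ^ j * e + f) * (e * t + f) =
        t ^ j * (e * e) * t + t ^ j * (e * f) + (f * e) * t + f * f := by noncomm_ring
    rw [e1, hee, hef, hfe, hff, mul_zero, zero_mul, add_zero, add_zero, mul_assoc, ← hte,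
      ← mul_assoc, ← pow_succ]

end ring

section symp

variable {l : Type*} [Fintype l] [DecidableEq l] {F : Type*} [CommRing F]

/-- `t e + f` preserves the form `J` when `t` does and `e`, `f` are complementary orthogonal
idempotents commuting with `t` and self-adjoint for `J`. -/
theorem glue_symp (J t e f : Matrix l l F) (hee : e * e = e) (hff : f * f = f)
    (hef : e * f = 0) (hfe : f * e = 0) (h1 : e + f = 1) (hte : t * e = e * t)
    (hJe : J * eᵀ = e * J) (hJf : J * fᵀ = f * J) (htJ : t * J * tᵀ = J) :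
    (t * e + f) * J * (t * e + f)ᵀ = J := by
  rw [transpose_add, transpose_mul]
  have e1 : (t * e + f) * J * (eᵀ * tᵀ + fᵀ) =
      t * e * (J * eᵀ) * tᵀ + t * e * (J * fᵀ) + f * (J * eᵀ) * tᵀ + f * (J * fᵀ) := by
    noncomm_ring
  rw [e1, hJe, hJf]
  have e2 : t * e * (e * J) * tᵀ + t * e * (f * J) + f * (e * J) * tᵀ + f * (f * J) =
      t * (e * e) * J * tᵀ + t * (e * f) * J + (f * e) * J * tᵀ + (f * f) * J := by
    noncomm_ring
  rw [e2, hee, hef, hfe, hff, mul_zero, zero_mul, zero_mul, add_zero, add_zero, hte]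
  have e3 : e * t * J * tᵀ + f * J = e * (t * J * tᵀ) + f * J := by noncomm_ring
  rw [e3, htJ, ← add_mul, h1, one_mul]

end symp

section bound

variable {F : Type u} [Field F] [Fintype F]

/-- A non-trivial symplectic matrix with `s`-th power one fixing a non-zero vector forces
`η(k) ≤ n - 1`. -/
theorem sp_bound_of_fix (p : ℕ) [Fact p.Prime] [CharP F p] (n s k ηk : ℕ) (hs : s.Prime)
    (hs2 : s ≠ 2) (hsp : s ≠ p) (hk : k = orderOf ((Fintype.card F : ℕ) : ZMod s))
    (hη : Eta k ηk) (T : Matrix.symplecticGroup (Fin n) F) (hT : T.1 ^ s = 1) (hT1 : T.1 ≠ 1)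
    (E : Matrix (Fin n ⊕ Fin n) (Fin n ⊕ Fin n) F) (hE : E ≠ 0) (hTE : T.1 * E = E) :
    ηk ≤ n - 1 := by
  classical
  obtain ⟨S, dg, hS, hSne, hrF, hk0, hdg, hdd, hfix⟩ := exists_sp_data p s k hs hs2 hsp hk
  have hcard : Fintype.card (Fin n ⊕ Fin n) = 2 * n := by
    rw [Fintype.card_sum, Fintype.card_fin]; omega
  obtain ⟨a₀, ha₀, hχ⟩ := charpoly_eq_chi' hS T.1 hT (2 * n) hcard
  have ha₀0 : a₀ ≠ 0 := by
    rintro rfl
    apply hT1
    apply eq_one_of_charpoly' T.1 s hrF hT (2 * n) hcard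
    rw [hχ]
    simp [chi]
  have hinv : ∀ π, a₀ (dg π) = a₀ π := by
    have h1 := dual_charpoly_sp T
    rw [hχ, dual_chi (RingHom.id F) dg hdd hdg] at h1
    have h2 := chi_inj hS _ _ _ _ h1
    intro π
    exact congrFun h2 π
  have hdet : (1 - T.1).det = 0 := by
    by_contra hne
    have hu : IsUnit (1 - T.1) :=
      (Matrix.isUnit_iff_isUnit_det _).mpr (isUnit_iff_ne_zero.mpr hne)
    have h0 : (1 - T.1) * E = 0 := by rw [sub_mul, one_mul, hTE, sub_self]
    exact hE (hu.mul_right_eq_zero.mp h0)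
  have heval : T.1.charpoly.eval 1 = 0 := by
    rw [Matrix.eval_charpoly]
    simpa using hdet
  have hlt : k * ∑ π, a₀ π < 2 * n := by
    by_contra hge
    have h0 : 2 * n - k * ∑ π, a₀ π = 0 := by omega
    rw [hχ, h0] at heval
    unfold chi at heval
    rw [pow_zero, one_mul, eval_prod] at heval
    obtain ⟨π, -, hπ⟩ := Finset.prod_eq_zero_iff.mp heval
    rw [eval_pow] at hπ
    have hn0 : a₀ π ≠ 0 := by
      intro h0'
      rw [h0', pow_zero] at hπ
      exact one_ne_zero hπ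
    exact eval_one_ne hS π.1 π.2 ((pow_eq_zero_iff hn0).mp hπ)
  obtain ⟨π₀, hπ₀⟩ : ∃ π₀, a₀ π₀ ≠ 0 := by
    by_contra hcon
    apply ha₀0
    funext π
    by_contra hπ
    exact hcon ⟨π, hπ⟩
  rcases hη with ⟨hodd, hη⟩ | ⟨heven, hη⟩
  · have hne : π₀ ≠ dg π₀ := by
      intro h
      exact (Nat.not_even_iff_odd.mpr hodd) ((hfix π₀).mp h.symm)
    have h1 : a₀ π₀ + a₀ (dg π₀) ≤ ∑ π, a₀ π := by
      rw [← Finset.sum_pair hne]
      exact Finset.sum_le_sum_of_subset (Finset.subset_univ _)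
    rw [hinv] at h1
    have h2 : k * 2 ≤ k * ∑ π, a₀ π := Nat.mul_le_mul_left k (by omega)
    omega
  · have h1 : a₀ π₀ ≤ ∑ π, a₀ π :=
      Finset.single_le_sum (fun _ _ => Nat.zero_le _) (Finset.mem_univ π₀)
    have h2 : ηk * 1 ≤ ηk * ∑ π, a₀ π := Nat.mul_le_mul_left ηk (by omega)
    have h3 : k * ∑ π, a₀ π = 2 * (ηk * ∑ π, a₀ π) := by rw [← hη]; ring
    omega

end bound

section idem

variable {l : Type*} [Fintype l] [DecidableEq l] {F : Type*} [Field F]

/-- The eigenspace idempotents of an involution `z ≠ ± 1`. -/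
theorem exists_idem (h2 : (2 : F) ≠ 0) (J z t : Matrix l l F) (hzz : z * z = 1) (hz1 : z ≠ 1)
    (hzm1 : z ≠ -1) (htz : t * z = z * t) (hJz : J * zᵀ = z * J) :
    ∃ e f : Matrix l l F, e * e = e ∧ f * f = f ∧ e * f = 0 ∧ f * e = 0 ∧ e + f = 1 ∧
      t * e = e * t ∧ t * f = f * t ∧ J * eᵀ = e * J ∧ J * fᵀ = f * J ∧ e ≠ 0 ∧ f ≠ 0 := by
  obtain ⟨c, hc⟩ : ∃ c : F, c * 2 = 1 := ⟨2⁻¹, inv_mul_cancel₀ h2⟩
  have hpp : (1 + z) * (1 + z) = (2 : F) • (1 + z) := by
    rw [mul_add, add_mul, add_mul, one_mul, mul_one, one_mul, hzz, two_smul]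
    abel
  have hmm : (1 - z) * (1 - z) = (2 : F) • (1 - z) := by
    rw [mul_sub, sub_mul, sub_mul, one_mul, mul_one, one_mul, hzz, two_smul]
    abel
  have hpm : (1 + z) * (1 - z) = 0 := by
    rw [mul_sub, add_mul, add_mul, one_mul, mul_one, one_mul, hzz]
    abel
  have hmp : (1 - z) * (1 + z) = 0 := by
    rw [mul_add, sub_mul, sub_mul, one_mul, mul_one, one_mul, hzz]
    abel
  have hsum : (1 + z) + (1 - z) = (2 : F) • (1 : Matrix l l F) := by
    rw [two_smul]
    abel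
  have hcc : c * c * 2 = c := by rw [mul_assoc, hc, mul_one]
  refine ⟨c • (1 + z), c • (1 - z), ?_, ?_, ?_, ?_, ?_, ?_, ?_, ?_, ?_, ?_, ?_⟩
  · rw [smul_mul_smul_comm, hpp, smul_smul, hcc]
  · rw [smul_mul_smul_comm, hmm, smul_smul, hcc]
  · rw [smul_mul_smul_comm, hpm, smul_zero]
  · rw [smul_mul_smul_comm, hmp, smul_zero]
  · rw [← smul_add, hsum, smul_smul, hc, one_smul]
  · rw [mul_smul_comm, smul_mul_assoc, mul_add, add_mul, mul_one, one_mul, htz]
  · rw [mul_smul_comm, smul_mul_assoc, mul_sub, sub_mul, mul_one, one_mul, htz]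
  · rw [transpose_smul, transpose_add, transpose_one, mul_smul_comm, smul_mul_assoc, mul_add,
      add_mul, mul_one, one_mul, hJz]
  · rw [transpose_smul, transpose_sub, transpose_one, mul_smul_comm, smul_mul_assoc, mul_sub,
      sub_mul, mul_one, one_mul, hJz]
  · intro h
    apply hzm1
    have h3 : (2 : F) • c • (1 + z) = 0 := by rw [h, smul_zero]
    rw [smul_smul, mul_comm, hc, one_smul] at h3
    exact eq_neg_of_add_eq_zero_right h3
  · intro h
    apply hz1
    have h3 : (2 : F) • c • (1 - z) = 0 := by rw [h, smul_zero]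
    rw [smul_smul, mul_comm, hc, one_smul] at h3
    exact (sub_eq_zero.mp h3).symm

end idem

theorem pkgSpInvNec : PkgSpInvNec.{u} := by
  intro F _ _ hodd p _ _ n s k ηk hs hs2 hsp hk hη S hS2s hS2 hSs
  classical
  have h2 : (2 : F) ≠ 0 := by
    apply Ring.two_ne_zero
    intro h
    rw [FiniteField.even_card_iff_char_two] at h
    rw [Nat.odd_iff] at hodd
    omega
  obtain ⟨j, hj⟩ : ∃ j, s + 1 = 2 * j := by
    obtain ⟨m, hm⟩ := hs.odd_of_ne_two hs2
    exact ⟨m + 1, by omega⟩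
  obtain ⟨z, hz⟩ : ∃ z : Matrix (Fin n ⊕ Fin n) (Fin n ⊕ Fin n) F, z = S.1 ^ s := ⟨_, rfl⟩
  obtain ⟨t, ht⟩ : ∃ t : Matrix (Fin n ⊕ Fin n) (Fin n ⊕ Fin n) F, t = S.1 ^ (s + 1) :=
    ⟨_, rfl⟩
  have hzmem : z ∈ Matrix.symplecticGroup (Fin n) F := by
    rw [hz]; exact pow_mem S.2 s
  have htmem : t ∈ Matrix.symplecticGroup (Fin n) F := by
    rw [ht]; exact pow_mem S.2 (s + 1)
  have hzz : z * z = 1 := by rw [hz, ← pow_add, ← two_mul, hS2s]
  have hts : t ^ s = 1 := by
    rw [ht, ← pow_mul, hj, mul_assoc, mul_comm j s, ← mul_assoc, pow_mul, hS2s, one_pow]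
  have ht1 : t ≠ 1 := by
    intro h
    apply hS2
    left
    have h3 : S.1 ^ (2 * s) * S.1 ^ 2 = 1 := by
      rw [← pow_add, show 2 * s + 2 = (s + 1) * 2 by ring, pow_mul, ← ht, h, one_pow]
    rwa [hS2s, one_mul] at h3
  have hz1 : z ≠ 1 := fun h => hSs (Or.inl (hz ▸ h))
  have hzm1 : z ≠ -1 := fun h => hSs (Or.inr (hz ▸ h))
  have htz : t * z = z * t := by rw [hz, ht, ← pow_add, ← pow_add, add_comm]
  have hzJ : z * J (Fin n) F * zᵀ = J (Fin n) F := SymplecticGroup.mem_iff.mp hzmem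
  have htJ : t * J (Fin n) F * tᵀ = J (Fin n) F := SymplecticGroup.mem_iff.mp htmem
  have hJz : J (Fin n) F * zᵀ = z * J (Fin n) F := by
    have h3 : z * (z * J (Fin n) F * zᵀ) = z * J (Fin n) F := by rw [hzJ]
    rw [← mul_assoc, ← mul_assoc, hzz, one_mul] at h3
    exact h3
  obtain ⟨e, f, hee, hff, hef, hfe, h1, hte, htf, hJe, hJf, he0, hf0⟩ :=
    exists_idem h2 (J (Fin n) F) z t hzz hz1 hzm1 htz hJz
  have h1' : f + e = 1 := by rw [add_comm, h1]
  by_cases hT : t * e + f = 1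
  · -- then `t f + e ≠ 1`
    have hT' : t * f + e ≠ 1 := by
      intro hT'
      apply ht1
      have h3 : t = t * e + t * f := by rw [← mul_add, h1, mul_one]
      have h4 : t * e = 1 - f := eq_sub_of_add_eq hT
      have h5 : t * f = 1 - e := eq_sub_of_add_eq hT'
      rw [h3, h4, h5]
      have h6 : (1 : Matrix (Fin n ⊕ Fin n) (Fin n ⊕ Fin n) F) - f + (1 - e) = 1 + 1 - (e + f) := by
        abel
      rw [h6, h1, add_sub_cancel_right]
    have hmem : t * f + e ∈ Matrix.symplecticGroup (Fin n) F :=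
      SymplecticGroup.mem_iff.mpr (glue_symp _ t f e hff hee hfe hef h1' htf hJf hJe htJ)
    refine sp_bound_of_fix p n s k ηk hs hs2 hsp hk hη ⟨t * f + e, hmem⟩ ?_ hT' e he0 ?_
    · show (t * f + e) ^ s = 1
      rw [glue_pow t f e hff hee hfe hef h1' htf, hts, one_mul, h1']
    · show (t * f + e) * e = e
      rw [add_mul, mul_assoc, hfe, mul_zero, zero_add, hee]
  · have hmem : t * e + f ∈ Matrix.symplecticGroup (Fin n) F :=
      SymplecticGroup.mem_iff.mpr (glue_symp _ t e f hee hff hef hfe h1 hte hJe hJf htJ)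
    refine sp_bound_of_fix p n s k ηk hs hs2 hsp hk hη ⟨t * e + f, hmem⟩ ?_ hT f hf0 ?_
    · show (t * e + f) ^ s = 1
      rw [glue_pow t e f hee hff hef hfe h1 hte, hts, one_mul, h1]
    · show (t * e + f) * f = f
      rw [add_mul, mul_assoc, hef, mul_zero, zero_add, hff]

end Cfsg.Agent.Lib.Helper4.PG
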